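-- Team project BRA (S4484), package [B1]: the key inequality for a sharp eigenvalue (helper13).
import Cfsg.Agent.Lib.Helper95.BRA.Defs

set_option autoImplicit false

/-!
# [B1]: `‖P w‖² ‖w‖² ≤ |⟨w, A w⟩|²` for the eigenprojection `P` of a sharp eigenvalue
-/

open scoped Matrix ComplexConjugate

namespace Cfsg.Agent.Lib.Helper13.BRA

open Cfsg Cfsg.Agent.Lib.Helper74.Jordan Cfsg.Agent.Lib.Helper95.BRA

theorem b1_nsq_nonneg {n : ℕ} (u : Fin n → ℂ) : 0 ≤ nsq u :=
  Finset.sum_nonneg fun i _ => Complex.normSq_nonneg (u i)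

theorem b1_nsq_eq_zero {n : ℕ} (u : Fin n → ℂ) (h : nsq u = 0) : u = 0 := by
  funext i
  have h1 := (Finset.sum_eq_zero_iff_of_nonneg
    (fun i _ => Complex.normSq_nonneg (u i))).mp h i (Finset.mem_univ i)
  exact Complex.normSq_eq_zero.mp h1

theorem b1_star_dot_self {n : ℕ} (u : Fin n → ℂ) : star u ⬝ᵥ u = ((nsq u : ℝ) : ℂ) := by
  unfold nsq
  rw [Complex.ofReal_sum]
  unfold dotProduct
  refine Finset.sum_congr rfl fun i _ => ?_
  rw [Complex.normSq_eq_conj_mul_self]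
  rfl

theorem b1_herm_idem {n : ℕ} (P : Matrix (Fin n) (Fin n) ℂ) (hP1 : Pᴴ = P) (hP2 : P * P = P)
    (w : Fin n → ℂ) : star w ⬝ᵥ (P *ᵥ w) = ((nsq (P *ᵥ w) : ℝ) : ℂ) := by
  rw [← b1_star_dot_self (P *ᵥ w), Matrix.star_mulVec, hP1, ← Matrix.dotProduct_mulVec,
    Matrix.mulVec_mulVec, hP2]

theorem pkgB1 : PkgB1 := by
  intro n A N j₀ hN hA hAu hS w
  obtain ⟨hj₀, hP₀, hsharp⟩ := hS
  obtain ⟨a, hadef⟩ : ∃ a : ℕ → ℝ, a = fun j => nsq (proj A N j *ᵥ w) := ⟨_, rfl⟩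
  have ha : ∀ j, a j = nsq (proj A N j *ᵥ w) := fun j => by rw [hadef]
  have ha0 : ∀ j, 0 ≤ a j := fun j => by rw [ha]; exact b1_nsq_nonneg _
  have hF1 : ∀ j, j < N → star w ⬝ᵥ (proj A N j *ᵥ w) = ((a j : ℝ) : ℂ) := fun j hj => by
    rw [ha]
    exact b1_herm_idem _ (proj_herm hN hA hAu j) (proj_idem hN hA hj) w
  have hw : w = ∑ j ∈ Finset.range N, proj A N j *ᵥ w := by
    rw [← Matrix.sum_mulVec, sum_proj hN, Matrix.one_mulVec]
  have hS1c : ((nsq w : ℝ) : ℂ) = ∑ j ∈ Finset.range N, ((a j : ℝ) : ℂ) := by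
    have h1 : star w ⬝ᵥ (∑ j ∈ Finset.range N, proj A N j *ᵥ w) =
        ∑ j ∈ Finset.range N, ((a j : ℝ) : ℂ) := by
      rw [dotProduct_sum]
      exact Finset.sum_congr rfl fun j hj => hF1 j (Finset.mem_range.mp hj)
    rw [← hw, b1_star_dot_self] at h1
    exact h1
  have hT : nsq w = ∑ j ∈ Finset.range N, a j := by
    apply Complex.ofReal_injective
    rw [hS1c, Complex.ofReal_sum]
  have hS2 : star w ⬝ᵥ (A *ᵥ w) = ∑ j ∈ Finset.range N, ev N j * ((a j : ℝ) : ℂ) := by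
    have h1 : A *ᵥ w = ∑ j ∈ Finset.range N, ev N j • (proj A N j *ᵥ w) := by
      conv_lhs => rw [self_eq_sum hN hA]
      rw [Matrix.sum_mulVec]
      exact Finset.sum_congr rfl fun j _ => Matrix.smul_mulVec _ _ _
    rw [h1, dotProduct_sum]
    refine Finset.sum_congr rfl fun j hj => ?_
    rw [dotProduct_smul, hF1 j (Finset.mem_range.mp hj), smul_eq_mul]
  obtain ⟨z, hz⟩ : ∃ z : ℂ, z = star w ⬝ᵥ (A *ᵥ w) := ⟨_, rfl⟩
  have hε : Complex.normSq (ev N j₀) = 1 := normSq_ev hN j₀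
  obtain ⟨c, hc⟩ : ∃ c : ℕ → ℝ, c = fun j => (ev N j * conj (ev N j₀)).re := ⟨_, rfl⟩
  have hcj : ∀ j, c j = (ev N j * conj (ev N j₀)).re := fun j => by rw [hc]
  have hR : (z * conj (ev N j₀)).re = ∑ j ∈ Finset.range N, c j * a j := by
    rw [hz, hS2, Finset.sum_mul, Complex.re_sum]
    refine Finset.sum_congr rfl fun j _ => ?_
    have h1 : ev N j * ((a j : ℝ) : ℂ) * conj (ev N j₀) =
        ((a j : ℝ) : ℂ) * (ev N j * conj (ev N j₀)) := by ring
    rw [h1, Complex.re_ofReal_mul, hcj, mul_comm]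
  have hc0 : c j₀ = 1 := by
    rw [hcj, Complex.mul_conj, hε]
    simp
  have hterm : ∀ j ∈ Finset.range N, 0 ≤ c j * a j - a j / 2 := by
    intro j hj
    by_cases hPj : proj A N j = 0
    · have h1 : a j = 0 := by
        rw [ha, hPj, Matrix.zero_mulVec]
        simp [nsq]
      rw [h1]
      simp
    · have h1 := hsharp j (Finset.mem_range.mp hj) hPj
      rw [← hcj] at h1
      have h2 := ha0 j
      nlinarith
  have hRge : (a j₀ + nsq w) / 2 ≤ (z * conj (ev N j₀)).re := by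
    have h1 := Finset.single_le_sum hterm (Finset.mem_range.mpr hj₀)
    rw [Finset.sum_sub_distrib, ← Finset.sum_div, ← hT, ← hR, hc0] at h1
    linarith
  have hnz : (z * conj (ev N j₀)).re * (z * conj (ev N j₀)).re ≤ Complex.normSq z := by
    have h1 : Complex.normSq (z * conj (ev N j₀)) = Complex.normSq z := by
      rw [Complex.normSq_mul, Complex.normSq_conj, hε, mul_one]
    rw [← h1, Complex.normSq_apply]
    nlinarith [mul_self_nonneg (z * conj (ev N j₀)).im]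
  have hT0 : 0 ≤ nsq w := b1_nsq_nonneg w
  have h0 : 0 ≤ (a j₀ + nsq w) / 2 := by
    have := ha0 j₀
    linarith
  have hsq : (a j₀ + nsq w) / 2 * ((a j₀ + nsq w) / 2) ≤
      (z * conj (ev N j₀)).re * (z * conj (ev N j₀)).re := mul_self_le_mul_self h0 hRge
  rw [← hz, ← ha j₀]
  refine ⟨?_, ?_, ?_⟩
  · nlinarith [sq_nonneg (nsq w - a j₀)]
  · intro heq
    have h1 : (nsq w - a j₀) ^ 2 ≤ 0 := by nlinarith
    have h2 : nsq w = a j₀ := by
      have h3 : (nsq w - a j₀) ^ 2 = 0 := le_antisymm h1 (sq_nonneg _)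
      have h4 := pow_eq_zero_iff (n := 2) (by norm_num) |>.mp h3
      linarith
    have h5 : ∑ j ∈ (Finset.range N).erase j₀, a j = 0 := by
      have h6 := Finset.add_sum_erase (Finset.range N) a (Finset.mem_range.mpr hj₀)
      rw [← hT, h2] at h6
      linarith
    have h7 : ∀ j ∈ (Finset.range N).erase j₀, proj A N j *ᵥ w = 0 := by
      intro j hj
      have h8 := (Finset.sum_eq_zero_iff_of_nonneg (fun j _ => ha0 j)).mp h5 j hj
      rw [ha] at h8
      exact b1_nsq_eq_zero _ h8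
    calc proj A N j₀ *ᵥ w = proj A N j₀ *ᵥ w + ∑ j ∈ (Finset.range N).erase j₀, proj A N j *ᵥ w := by
          rw [Finset.sum_eq_zero h7, add_zero]
      _ = ∑ j ∈ Finset.range N, proj A N j *ᵥ w :=
          Finset.add_sum_erase (Finset.range N) (fun j => proj A N j *ᵥ w)
            (Finset.mem_range.mpr hj₀)
      _ = w := hw.symm
  · intro hw0 hz0
    have h1 : 0 < nsq w := by
      rcases hT0.lt_or_eq with h | h
      · exact h
      · exact absurd (b1_nsq_eq_zero w h.symm) hw0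
    have h2 := ha0 j₀
    rw [hz0, zero_mul] at hRge
    simp at hRge
    linarith

end Cfsg.Agent.Lib.Helper13.BRA
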